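import Mathlib
import Cfsg.Agent.Lib.BK.RedCor
import Cfsg.Agent.Lib.BK.Main

/-!
# Blocks of `p`-regular rank one with at most four characters
-/

set_option autoImplicit false
set_option linter.unusedSectionVars false
set_option linter.style.haveILetI false

namespace Cfsg.Agent.Lib.BK.Small

open Cfsg MonoidAlgebra Module
open Cfsg.Agent.Lib.Blocks.Local Cfsg.Agent.Lib.Blocks.Central Cfsg.Agent.Lib.Blocks.Brauer
open Cfsg.Agent.Lib.BlockAlg Cfsg.Agent.Lib.Blk89.BlockPow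
open Cfsg.Agent.Lib.BP.Fit Cfsg.Agent.Lib.BP.Corner Cfsg.Agent.Lib.BP.KS
open Cfsg.Agent.Lib.BK.Trc Cfsg.Agent.Lib.BK.Dual Cfsg.Agent.Lib.BK.Coef Cfsg.Agent.Lib.BK.HC Cfsg.Agent.Lib.BK.Equal
open Cfsg.Agent.Lib.BK.Cmat Cfsg.Agent.Lib.BK.Dim Cfsg.Agent.Lib.BK.RankOne Cfsg.Agent.Lib.BK.RedCor
open Cfsg.Agent.Lib.Char.Basic Cfsg.Agent.Lib.Char.Degree Cfsg.Agent.Lib.Blocks.Weak
open Cfsg.Agent.Lib.Star.LocalSym

universe u

variable {G : Type u} [Group G] [Fintype G] {M : Ideal AlgInt} [hMp : M.IsPrime] {p : ℕ} [Fact p.Prime]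
  [Fintype (IrrCharacter G)] {B : Set (IrrCharacter G)}

/-- The matrix units. -/
theorem exists_hcData_of_rank_one (hM : IsPModular p M) (hB : IsPBlock M B) (hr1 : blockRank p B = 1)
    (hk : Nat.card B ≤ 4) :
    ∃ (i : GA G) (s : Finset (GA G)) (u w : GA G → GA G), HCData M B i s u w := by
  classical
  haveI := finite_groupAlg (G := G) (Res M)
  have hS := isOrder_rcS (M := M) (G := G)
  have heB := idem_mem_localCenter hB
  set e : GA G := ((idem B : Subalgebra.center ℂ (GA G)) : GA G) with he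
  have heR : e ∈ RcS M G := heB
  have hee : e * e = e := congrArg Subtype.val (idem_mul_self (G := G) B)
  obtain ⟨χ₀, hχ₀⟩ := isPBlock_nonempty hB
  obtain ⟨L, h1, h2, h3⟩ := exists_prim_decomp hS heR hee
  have hL : IsDec (RcS M G) e L := ⟨h1, h2, h3⟩
  have hene : e ≠ 0 := by
    intro h0
    have := lin_idem_mul B χ₀ (1 : GA G)
    rw [← he, h0, zero_mul, map_zero, if_pos hχ₀, lin_one] at this
    exact Cfsg.Agent.Lib.Char.Complete.irr_one_ne_zero χ₀.2 this.symm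
  have hLne : L.Nonempty := by
    by_contra hcon
    rw [Finset.not_nonempty_iff_eq_empty] at hcon
    rw [hcon, Finset.sum_empty] at h3
    exact hene h3.symm
  obtain ⟨l₀, hl₀⟩ := hLne
  have hprim₀ := h1 l₀ hl₀
  have hel : ∀ l ∈ L, e * l = l := fun l hl => hL.mul_left hl
  have hall : ∀ l, l ∈ L → ∃ a b : GA G, a ∈ RcS M G ∧ b ∈ RcS M G ∧ l * a = a ∧ a * l₀ = a ∧ l₀ * b = b ∧ b * l = b ∧
      a * b = l ∧ b * a = l₀ := by
    intro l hl
    obtain ⟨a, ha, b, hb, h4, h5, h6, h7, h8, h9⟩ := iso_of_rank_one hM hr1 (h1 l hl) hprim₀ (hel l hl) (hel l₀ hl₀)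
    exact ⟨a, b, ha, hb, h4, h5, h6, h7, h8, h9⟩
  choose! u w hu hw hu0 hu1 hw1 hw0 huw hwu using hall
  have hwu' : ∀ l ∈ L, ∀ l' ∈ L, w l * u l' = if l = l' then l₀ else 0 := by
    intro l hl l' hl'
    by_cases h : l = l'
    · subst h
      rw [if_pos rfl, hwu l hl]
    · rw [if_neg h]
      calc w l * u l' = (w l * l) * (l' * u l') := by rw [hw0 l hl, hu0 l' hl']
        _ = w l * (l * l') * u l' := by noncomm_ring
        _ = 0 := by rw [h2 l hl l' hl' h, mul_zero, zero_mul]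
  have hsum : ∑ l ∈ L, u l * w l = e := by
    rw [Finset.sum_congr rfl huw]
    exact h3
  have hrc₀ : Rc M l₀ := hprim₀.mem
  have hZB : finrank (Res M) (ZCor (Res M) (red M l₀)) ≤ Nat.card B :=
    (finrank_ZCor_le heB hrc₀ hprim₀.idem ⟨l₀, hl₀⟩ (fun l hl => hu l hl) (fun l hl => hw l hl) hu1 hw1 hwu' hsum).trans
      (finrank_VE_le heB)
  have hcomm := corner_comm_red hprim₀ (hZB.trans hk)
  have hcor : Cor (Res M) (red M l₀) ≤ ZCor (Res M) (red M l₀) := fun c hc => ⟨hc, fun d hd => hcomm d hd c hc⟩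
  have hrange : LinearMap.range (corMap (red M l₀)) = Cor (Res M) (red M l₀) := by
    ext x
    rw [mem_range_corMap (by rw [← red_mul hrc₀ hrc₀, hprim₀.idem])]
    rfl
  have hdim : finrank ℂ (LinearMap.range (corMap l₀)) ≤ Nat.card B := by
    refine (finrank_corner_le hrc₀ hprim₀.idem).trans ?_
    rw [hrange]
    exact (Submodule.finrank_mono hcor).trans hZB
  have htrace : (finrank ℂ (LinearMap.range (corMap l₀)) : ℂ) = ∑ χ : IrrCharacter G, (lin (χ : G → ℂ) l₀) ^ 2 := by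
    rw [← trace_corMap]
    have hidem : IsIdempotentElem (corMap l₀) := corMap_idem hprim₀.idem
    exact ((LinearMap.IsIdempotentElem.isProj_range _ hidem).trace).symm
  have hnatl : ∀ χ : IrrCharacter G, ∃ n : ℕ, lin (χ : G → ℂ) l₀ = n := fun χ =>
    exists_nat_lin_idem (isCharacter_of_isIrrCharacter χ.2) hprim₀.idem
  choose c hc using hnatl
  have hsumc : ∑ χ : IrrCharacter G, (c χ) ^ 2 ≤ Nat.card B := by
    have h4 : ((finrank ℂ (LinearMap.range (corMap l₀)) : ℕ) : ℂ) = ((∑ χ : IrrCharacter G, (c χ) ^ 2 : ℕ) : ℂ) := by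
      rw [htrace]
      push_cast
      exact Finset.sum_congr rfl fun χ _ => by rw [hc]
    have h5 : finrank ℂ (LinearMap.range (corMap l₀)) = ∑ χ : IrrCharacter G, (c χ) ^ 2 := by exact_mod_cast h4
    rw [← h5]
    exact hdim
  have hcne : ∀ χ ∈ B, c χ ≠ 0 := by
    intro χ hχ h0
    exact lin_ne_zero hM hr1 hχ hprim₀.idem hrc₀ (hel l₀ hl₀) hprim₀.ne (by rw [hc, h0]; simp)
  set F : Finset (IrrCharacter G) := Finset.univ.filter (· ∈ B) with hF
  have hcardF : Nat.card B = F.card := Nat.subtype_card F (fun x => by simp [hF])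
  have hcone : ∀ χ ∈ B, c χ = 1 := by
    intro χ hχ
    have hχF : χ ∈ F := by simp [hF, hχ]
    by_contra hne
    have h4 : 2 ≤ c χ := by
      have := hcne χ hχ
      omega
    have h5 : ∑ χ ∈ F, 1 < ∑ χ ∈ F, (c χ) ^ 2 := by
      refine Finset.sum_lt_sum (fun ψ hψ => ?_) ⟨χ, hχF, ?_⟩
      · have h6 := hcne ψ (by simpa [hF] using hψ)
        exact Nat.one_le_pow _ _ (Nat.pos_of_ne_zero h6)
      · nlinarith
    have h6 : ∑ χ ∈ F, (c χ) ^ 2 ≤ ∑ χ : IrrCharacter G, (c χ) ^ 2 :=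
      Finset.sum_le_sum_of_subset (Finset.subset_univ _)
    simp only [Finset.sum_const, smul_eq_mul, mul_one] at h5
    omega
  refine ⟨l₀, L, u, w, ?_⟩
  refine ⟨hprim₀.idem, ?_, hL.mul_right hl₀, fun j hj => hS.rc _ (hu j hj), fun j hj => hS.rc _ (hw j hj), hwu, hu1, hw1, hsum⟩
  intro χ hχ
  rw [hc, hcone χ hχ]
  simp

end Cfsg.Agent.Lib.BK.Small
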